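/-
A bound for sets of pairwise commuting transpositions in a list of labels, by a search.
-/
import Mathlib
import Cfsg.Agent.Lib.Fischer.M22.Rows.Chain

set_option autoImplicit false
set_option maxRecDepth 100000

namespace Cfsg.Agent.Lib.Fischer.M22.Rows

open Cfsg Cfsg.Agent.Lib.Compute.ToddCoxeterCore Cfsg.Agent.Lib.Compute.TCChain
open Cfsg.Agent.Lib.Fischer.M22.Explicit

/-- No clique with more than `k` members: the pairs are a vertex and the mask of its neighbours. -/
noncomputable def cliq (k : ℕ) : List (ℕ × ℕ) → Bool :=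
  Nat.rec (motive := fun _ => List (ℕ × ℕ) → Bool) (fun l => l.isEmpty)
    (fun _ ih l => List.rec (motive := fun _ => Bool) true
      (fun pr cs r => Bool.rec (motive := fun _ => Bool) false r
        (ih (cs.filter (fun s => Nat.testBit pr.2 s.1)))) l) k

@[simp] theorem cliq_zero (l : List (ℕ × ℕ)) : cliq 0 l = l.isEmpty := rfl

@[simp] theorem cliq_succ_nil (k : ℕ) : cliq (k + 1) [] = true := rfl

theorem cliq_succ_cons (k : ℕ) (pr : ℕ × ℕ) (cs : List (ℕ × ℕ)) :
    cliq (k + 1) (pr :: cs) = Bool.rec (motive := fun _ => Bool) false (cliq (k + 1) cs)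
      (cliq k (cs.filter (fun s => Nat.testBit pr.2 s.1))) := rfl

theorem cliq_sound {k : ℕ} {l : List (ℕ × ℕ)} (h : cliq k l = true) (C : Finset ℕ)
    (hC : ∀ v ∈ C, v ∈ l.map Prod.fst)
    (hadj : ∀ pr ∈ l, pr.1 ∈ C → ∀ v ∈ C, v ≠ pr.1 → Nat.testBit pr.2 v = true) : C.card ≤ k := by
  classical
  induction k generalizing l C with
  | zero =>
    rw [cliq_zero] at h
    have hl : l = [] := List.isEmpty_iff.1 h
    subst hl
    have : C = ∅ := by
      apply Finset.eq_empty_of_forall_notMem
      intro v hv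
      simpa using hC v hv
    simp [this]
  | succ k ihk =>
    induction l generalizing C with
    | nil =>
      have : C = ∅ := by
        apply Finset.eq_empty_of_forall_notMem
        intro v hv
        simpa using hC v hv
      simp [this]
    | cons pr cs ihl =>
      rw [cliq_succ_cons] at h
      cases h1 : cliq k (cs.filter (fun s => Nat.testBit pr.2 s.1)) with
      | false => rw [h1] at h; cases h
      | true =>
      rw [h1] at h
      simp only [] at h
      by_cases hc : pr.1 ∈ C
      · have h2 : (C.erase pr.1).card ≤ k := by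
          apply ihk h1
          · intro v hv
            have hv1 := Finset.mem_erase.1 hv
            have hv2 := hC v hv1.2
            rw [List.map_cons, List.mem_cons] at hv2
            rcases hv2 with hv3 | hv3
            · exact absurd hv3 hv1.1
            · obtain ⟨s, hs, rfl⟩ := List.mem_map.1 hv3
              have hb := hadj pr (by simp) hc _ hv1.2 hv1.1
              exact List.mem_map.2 ⟨s, List.mem_filter.2 ⟨hs, hb⟩, rfl⟩
          · intro s hs hsC v hv hne
            have hs' : s ∈ cs := (List.mem_filter.1 hs).1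
            exact hadj s (List.mem_cons_of_mem _ hs') (Finset.mem_erase.1 hsC).2 v (Finset.mem_erase.1 hv).2 hne
        rw [Finset.card_erase_of_mem hc] at h2
        have : 0 < C.card := Finset.card_pos.2 ⟨_, hc⟩
        omega
      · apply ihl h
        · intro v hv
          have hv2 := hC v hv
          rw [List.map_cons, List.mem_cons] at hv2
          rcases hv2 with hv3 | hv3
          · rw [hv3] at hv
            exact absurd hv hc
          · exact hv3
        · intro s hs hsC v hv hne
          exact hadj s (List.mem_cons_of_mem _ hs) hsC v hv hne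

/-- The check of the masks of neighbours. -/
noncomputable def adjOK (l : List (ℕ × ℕ)) : Bool :=
  l.all (fun pr => l.all (fun s => Bool.rec (motive := fun _ => Bool)
    (Bool.rec (motive := fun _ => Bool) true (Nat.testBit pr.2 s.1) (Nat.beq (tv pr.1 s.1) s.1))
    true (Nat.beq pr.1 s.1)))

theorem width_bound {l : List (ℕ × ℕ)} {k : ℕ} (hk : cliq k l = true) (hadj : adjOK l = true)
    (hlt : ∀ pr ∈ l, pr.1 < NN) {E : Set G0} (hf : E.Finite)
    (hE : ∀ u ∈ E, ∃ q ∈ l.map Prod.fst, u = tn q) (hc : ∀ a ∈ E, ∀ b ∈ E, Commute a b) :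
    E.ncard ≤ k := by
  classical
  choose! f hf1 hf2 using hE
  have hinj : Set.InjOn f E := by
    intro u hu v hv e
    rw [hf2 u hu, hf2 v hv, e]
  have hcard : E.ncard = (hf.toFinset.image f).card := by
    rw [Set.ncard_eq_toFinset_card E hf, Finset.card_image_of_injOn]
    intro u hu v hv e
    exact hinj (hf.mem_toFinset.1 hu) (hf.mem_toFinset.1 hv) e
  rw [hcard]
  apply cliq_sound hk
  · intro v hv
    obtain ⟨u, hu, rfl⟩ := Finset.mem_image.1 hv
    exact hf1 u (hf.mem_toFinset.1 hu)
  · intro pr hpr hpC v hv hne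
    obtain ⟨u, hu, rfl⟩ := Finset.mem_image.1 hv
    obtain ⟨u', hu', hu''⟩ := Finset.mem_image.1 hpC
    have hu1 := hf.mem_toFinset.1 hu
    have hu2 := hf.mem_toFinset.1 hu'
    obtain ⟨s, hs, hs'⟩ := List.mem_map.1 (hf1 u hu1)
    have h1 := List.all_eq_true.1 (List.all_eq_true.1 hadj pr hpr) s hs
    rw [hs'] at h1
    have hp := hlt pr hpr
    have hq : f u < NN := by
      rw [← hs']
      exact hlt s hs
    have h2 : Nat.beq pr.1 (f u) = false := by
      cases h3 : Nat.beq pr.1 (f u) with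
      | false => rfl
      | true => exact absurd (beq_iff.1 h3).symm hne
    rw [h2] at h1
    simp only [] at h1
    have hcomm : Commute (tn pr.1) (tn (f u)) := by
      rw [← hu'', ← hf2 u' hu2, ← hf2 u hu1]
      exact hc _ hu2 _ hu1
    have h3 : Nat.beq (tv pr.1 (f u)) (f u) = true := by
      rw [tn_val ⟨pr.1, hp⟩, tn_val ⟨f u, hq⟩] at hcomm
      have h4 := (comm_t_iff ⟨pr.1, hp⟩ ⟨f u, hq⟩).1 hcomm
      have h5 := tv_spec ⟨pr.1, hp⟩ ⟨f u, hq⟩
      rw [h4] at h5
      exact beq_iff.2 h5.symm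
    rw [h3] at h1
    exact h1

/-- A set of pairwise commuting transpositions from a list of labels. -/
theorem width_attained {ls : List ℕ} (hlt : ∀ q ∈ ls, q < NN) (hn : ls.Nodup)
    (hc : ∀ q ∈ ls, ∀ r ∈ ls, tv q r = r) :
    ∃ E : Set G0, E.Finite ∧ (∀ u ∈ E, ∃ q ∈ ls, u = tn q) ∧ (∀ a ∈ E, ∀ b ∈ E, Commute a b) ∧ E.ncard = ls.length := by
  classical
  refine ⟨((ls.toFinset.image tn : Finset G0) : Set G0), Finset.finite_toSet _, ?_, ?_, ?_⟩
  · intro u hu
    obtain ⟨q, hq, rfl⟩ := Finset.mem_image.1 (Finset.mem_coe.1 hu)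
    exact ⟨q, List.mem_toFinset.1 hq, rfl⟩
  · intro a ha b hb
    obtain ⟨q, hq, rfl⟩ := Finset.mem_image.1 (Finset.mem_coe.1 ha)
    obtain ⟨r, hr, rfl⟩ := Finset.mem_image.1 (Finset.mem_coe.1 hb)
    have hq' := List.mem_toFinset.1 hq
    have hr' := List.mem_toFinset.1 hr
    rw [tn_val ⟨q, hlt q hq'⟩, tn_val ⟨r, hlt r hr'⟩, comm_t_iff]
    apply Fin.ext
    rw [tv_spec]
    exact hc q hq' r hr'
  · rw [Set.ncard_coe_finset, Finset.card_image_of_injOn, List.toFinset_card_of_nodup hn]
    intro q hq r hr e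
    have hq' := List.mem_toFinset.1 (Finset.mem_coe.1 hq)
    have hr' := List.mem_toFinset.1 (Finset.mem_coe.1 hr)
    rw [tn_val ⟨q, hlt q hq'⟩, tn_val ⟨r, hlt r hr'⟩] at e
    exact congrArg Fin.val (t_inj e)

/-- The width of a set of transpositions with labels in a list. -/
theorem width_eq {U : Set G0} {l : List (ℕ × ℕ)} {k : ℕ} (hk : cliq k l = true) (hadj : adjOK l = true)
    (hlt : ∀ pr ∈ l, pr.1 < NN) (hU : ∀ u ∈ U, ∃ q ∈ l.map Prod.fst, u = tn q)
    {ls : List ℕ} (hlen : ls.length = k) (hlt' : ∀ q ∈ ls, q < NN) (hn : ls.Nodup)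
    (hc : ∀ q ∈ ls, ∀ r ∈ ls, tv q r = r) (hmem : ∀ q ∈ ls, tn q ∈ U) :
    commutingWidth U = k := by
  unfold commutingWidth
  apply IsGreatest.csSup_eq
  constructor
  · obtain ⟨E, h1, h2, h3, h4⟩ := width_attained hlt' hn hc
    refine ⟨E, ?_, h1, h3, by rw [h4, hlen]⟩
    intro u hu
    obtain ⟨q, hq, rfl⟩ := h2 u hu
    exact hmem q hq
  · rintro n ⟨E, h1, h2, h3, rfl⟩
    exact width_bound hk hadj hlt h2 (fun u hu => hU u (h1 hu)) h3

end Cfsg.Agent.Lib.Fischer.M22.Rows
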