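/-
The normalizer of the subgroup generated by the product of two non-commuting transpositions in the explicit model.
-/
import Mathlib
import Cfsg.Agent.Lib.Fischer.M22.Rows.Prime
import Cfsg.Agent.Lib.Fischer.M22.Rows.S3
import Cfsg.Agent.Lib.Fischer.M22.Rows.Conj
import Cfsg.Agent.Lib.Fischer.M22.Rows.P3AData

set_option autoImplicit false
set_option maxRecDepth 100000

namespace Cfsg.Agent.Lib.Fischer.M22.Rows.P3AData

open Cfsg Cfsg.Agent.Lib.Compute.ToddCoxeterCore
open Cfsg.Agent.Lib.Fischer.M22.Explicit Cfsg.Agent.Lib.Fischer.M22.Rows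

instance : Fact (Nat.Prime 3) := ⟨by norm_num⟩

/-- The first transposition. -/
noncomputable def aa : G0 := tn 0
/-- The second transposition. -/
noncomputable def dd : G0 := tn 1

theorem aa_eq : aa = t pt0 := tn_val pt0
theorem dd_eq : dd = t lb1 := tn_val lb1
theorem aa_w : wE [16] = aa := wE_label 0
theorem dd_w : wE [17] = dd := wE_label 1
theorem aa_sq : aa * aa = 1 := tn_sq _
theorem dd_sq : dd * dd = 1 := tn_sq _
theorem aa_inv : aa⁻¹ = aa := inv_eq_of_mul_eq_one_left aa_sq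
theorem dd_inv : dd⁻¹ = dd := inv_eq_of_mul_eq_one_left dd_sq

theorem noncomm : ¬ Commute aa dd := by
  rw [aa_eq, dd_eq, t_pt0]
  exact not_comm_a0_lb1

theorem aa_ne : aa ≠ dd := by
  intro h
  apply noncomm
  rw [h]

/-- The element of order three. -/
noncomputable def x₀ : G0 := aa * dd

theorem x_w : wE xW = x₀ := by
  show wE ([17] ++ [16]) = _
  rw [wE_append, aa_w, dd_w]
  rfl

theorem xi_w : wE xiW = x₀⁻¹ := by
  have h : x₀⁻¹ = dd * aa := by
    rw [x₀, mul_inv_rev, aa_inv, dd_inv]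
  rw [h]
  show wE ([16] ++ [17]) = _
  rw [wE_append, aa_w, dd_w]

theorem x_cube : x₀ ^ 3 = 1 := by
  rw [← x_w, ← wE_pow]
  exact wE_eq (v := []) (by decide +kernel)

theorem x_ne : x₀ ≠ 1 := by
  rw [← x_w]
  exact wE_ne_one (i := 0) (by decide +kernel)

theorem x_order : orderOf x₀ = 3 := orderOf_eq_prime x_cube x_ne

theorem a_inv_x : aa * x₀ * aa = x₀⁻¹ := by
  rw [x₀, mul_inv_rev, aa_inv, dd_inv]
  calc aa * (aa * dd) * aa = (aa * aa) * dd * aa := by group
    _ = dd * aa := by rw [aa_sq, one_mul]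

theorem d_inv_x : dd * x₀ * dd = x₀⁻¹ := by
  rw [x₀, mul_inv_rev, aa_inv, dd_inv]
  calc dd * (aa * dd) * dd = dd * aa * (dd * dd) := by group
    _ = dd * aa := by rw [dd_sq, mul_one]

/-- The product is of order three. -/
theorem ad_cube : (aa * dd) ^ 3 = 1 := x_cube

/-- The group of order three. -/
noncomputable def X₀ : Subgroup G0 := Subgroup.zpowers x₀

/-- The copy of `S₃`. -/
noncomputable def S₀ : Subgroup G0 := Subgroup.closure ({aa, dd} : Set G0)

/-- The set of generators of `K`. -/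
def KS : Set G0 := {y : G0 | y ∈ D0 ∧ Commute aa y ∧ Commute dd y ∧ y ≠ aa ∧ y ≠ dd}

/-- The group `K`. -/
noncomputable def K₀ : Subgroup G0 := Subgroup.closure KS

theorem mem_KS {y : G0} (hy : y ∈ D0) (ha : Commute aa y) (hd : Commute dd y) : y ∈ KS := by
  refine ⟨hy, ha, hd, ?_, ?_⟩
  · rintro rfl
    exact noncomm hd.symm
  · rintro rfl
    exact noncomm ha

theorem inK_spec {a : ℕ} (h : inK a = true) : aG a ∈ KS := by
  unfold inK at h
  cases h1 : blt a (nat_lit 3526) with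
  | false => rw [h1] at h; cases h
  | true =>
  rw [h1] at h
  simp only [] at h
  cases h2 : Nat.beq (aV a (nat_lit 0)) (nat_lit 0) with
  | false => rw [h2] at h; cases h
  | true =>
  rw [h2] at h
  simp only [] at h
  have ha := blt_iff.1 h1
  have h3 : aV a 0 = 0 := beq_iff.1 h2
  have h4 : aV a 1 = 1 := beq_iff.1 h
  apply mem_KS (aG_mem_D0 ha)
  · rw [aa_eq]
    apply Commute.symm
    apply (comm_t_iff' _ _).2
    apply Fin.ext
    rw [aV_spec ha]
    exact h3
  · rw [dd_eq]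
    apply Commute.symm
    apply (comm_t_iff' _ _).2
    apply Fin.ext
    rw [aV_spec ha]
    exact h4

theorem word_K {w : List ℕ} (h : w.all inK = true) : wE w ∈ K₀ :=
  word_mem_closure fun a ha => inK_spec (List.all_eq_true.1 h a ha)

theorem gens_mem {Yl : List ℕ} {gens : List (List ℕ)} (hY : ∀ b ∈ Yl, b < NN)
    (h : gens.all (fun w => Bool.rec (motive := fun _ => Bool) false
      (Bool.rec (motive := fun _ => Bool) false (w.all inK) (fixesAll Yl w)) (wOK w)) = true) :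
    ∀ w ∈ gens, wOK w = true ∧ wE w ∈ CY (Ylw Yl) ⊓ K₀ := by
  intro w hw
  have h1 := List.all_eq_true.1 h w hw
  cases h2 : wOK w with
  | false => rw [h2] at h1; cases h1
  | true =>
  rw [h2] at h1
  simp only [] at h1
  cases h3 : fixesAll Yl w with
  | false => rw [h3] at h1; cases h1
  | true =>
  rw [h3] at h1
  simp only [] at h1
  exact ⟨rfl, Subgroup.mem_inf.2 ⟨mem_CY_of_fixes h2 hY h3, word_K h1⟩⟩

theorem CY_le_K : CY (Ylw YlA) ≤ K₀ := by
  have hC : CY (Ylw YlC) ≤ K₀ := by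
    apply CY_le_step chkC ⟨ppC, ppC_lt⟩ pairsC negsC hPC hNC OmC hAllC
      (gens_mem (by decide +kernel) hGensC) hTreeC
    have h1 : CY (Ylw YlC ++ [[((⟨ppC, ppC_lt⟩ : Fin NN) : ℕ) + 16]]) = ⊥ := by
      apply CY_base' (Yl := YlC ++ [ppC]) (c := cW) (by decide +kernel)
      decide +kernel
    rw [h1]
    exact bot_le
  have hB : CY (Ylw YlB) ≤ K₀ := by
    exact CY_le_step chkB ⟨ppB, ppB_lt⟩ pairsB negsB hPB hNB OmB hAllB
      (gens_mem (by decide +kernel) hGensB) hTreeB hC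
  exact CY_le_step chkA ⟨ppA, ppA_lt⟩ pairsA negsA hPA hNA OmA hAllA
      (gens_mem (by decide +kernel) hGensA) hTreeA hB

theorem K_le_C : K₀ ≤ Subgroup.centralizer ({aa, dd} : Set G0) := by
  rw [K₀, Subgroup.closure_le]
  rintro y ⟨_, h1, h2, _, _⟩
  rw [SetLike.mem_coe, Subgroup.mem_centralizer_iff]
  rintro u (rfl | rfl)
  · exact h1.eq
  · exact h2.eq

theorem C_le_K : Subgroup.centralizer ({aa, dd} : Set G0) ≤ K₀ := by
  intro g hg
  apply CY_le_K
  have h1 := Subgroup.mem_centralizer_iff.1 hg aa (by simp)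
  have h2 := Subgroup.mem_centralizer_iff.1 hg dd (by simp)
  apply mem_CY_labels (by decide +kernel)
  intro b hb
  have hb' : b = 0 ∨ b = 1 := by
    have : b ∈ [0, 1] := hb
    simpa using this
  rcases hb' with rfl | rfl
  · apply (comm_t_iff' g pt0).1
    rw [← aa_eq]
    exact h1.symm
  · apply (comm_t_iff' g lb1).1
    rw [← dd_eq]
    exact h2.symm

theorem K_eq_C : K₀ = Subgroup.centralizer ({aa, dd} : Set G0) := le_antisymm K_le_C C_le_K

theorem K_comm_a {y : G0} (hy : y ∈ K₀) : Commute y aa :=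
  (Subgroup.mem_centralizer_iff.1 (K_le_C hy) aa (by simp)).symm

theorem K_comm_d {y : G0} (hy : y ∈ K₀) : Commute y dd :=
  (Subgroup.mem_centralizer_iff.1 (K_le_C hy) dd (by simp)).symm

theorem K_comm_x {y : G0} (hy : y ∈ K₀) : Commute y x₀ := (K_comm_a hy).mul_right (K_comm_d hy)

/-! ### The centre of `K` -/

theorem center_K : Subgroup.center K₀ = ⊥ := by
  rw [eq_bot_iff]
  rintro ⟨z, hz⟩ hc
  have hZ : ∀ q ∈ YlZ, ∀ hq : q < NN, φ z ⟨q, hq⟩ = ⟨q, hq⟩ := by
    intro q hq hn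
    have h0 : q ∈ [0, 1] ∨ q ∈ YlZ.drop 2 := by
      have : YlZ = [0, 1] ++ YlZ.drop 2 := rfl
      rw [this] at hq
      exact List.mem_append.1 hq
    rcases h0 with h0 | h0
    · have h1 : q = 0 ∨ q = 1 := by simpa using h0
      rcases h1 with rfl | rfl
      · apply (comm_t_iff' z pt0).1
        rw [← aa_eq]
        exact K_comm_a hz
      · apply (comm_t_iff' z lb1).1
        rw [← dd_eq]
        exact K_comm_d hz
    · have h1 := List.all_eq_true.1 hZin q h0
      have h2 : aG (q + 16) ∈ K₀ := Subgroup.subset_closure (inK_spec h1)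
      have h3 : aG (q + 16) = t ⟨q, hn⟩ := by
        rw [← wE_atom (q + 16), wE_label]
        exact tn_val ⟨q, hn⟩
      apply (comm_t_iff' z ⟨q, hn⟩).1
      rw [← h3]
      have h4 := Subgroup.mem_center_iff.1 hc ⟨_, h2⟩
      exact (congrArg Subtype.val h4).symm
  have hm : z ∈ CY (Ylw YlZ) := mem_CY_labels (by decide +kernel) (fun b hb => hZ b hb _)
  have h5 := (Subgroup.card_le_one_iff_eq_bot _).1 card_CYZ
  rw [h5, Subgroup.mem_bot] at hm
  exact (Subgroup.mem_bot).2 (Subtype.ext hm)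

/-! ### The normalizer of `X` -/

theorem inv_line {q : Fin NN} (h : t q * x₀ * t q = x₀⁻¹) : (q : ℕ) ∈ [0, 1, 2] := by
  have hq : (q : ℕ) < 3510 := q.2
  have h1 := allFrom_spec invChk q (Nat.zero_le _) (by show (q : ℕ) < 0 + 3510; omega)
  cases h2 : ([0, 1, 2] : List ℕ).elem (q : ℕ) with
  | true => exact List.elem_iff.1 h2
  | false =>
    rw [h2] at h1
    simp only [] at h1
    have hw : wOK ([(q : ℕ) + 16] ++ xW ++ [(q : ℕ) + 16]) = true := by
      have hq2 : blt ((q : ℕ) + 16) (nat_lit 3526) = true := blt_iff.2 (by show (q : ℕ) + 16 < 3526; omega)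
      have hx : wOK xW = true := by decide +kernel
      unfold wOK at hx ⊢
      simp only [List.all_append, List.all_cons, List.all_nil, Bool.and_true, Bool.and_eq_true]
      exact ⟨⟨hq2, hx⟩, hq2⟩
    have hw' : wOK xiW = true := by decide +kernel
    have h3 : wE ([(q : ℕ) + 16] ++ xW ++ [(q : ℕ) + 16]) = wE xiW := by
      rw [wE_append, wE_append, wE_label, tn_val, x_w, xi_w, ← h]
      group
    have h4 : base.all (fun b => Nat.beq (run aV ([(q : ℕ) + 16] ++ xW ++ [(q : ℕ) + 16]) b) (run aV xiW b)) = true := by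
      rw [List.all_eq_true]
      intro b hb
      apply beq_iff.2
      rw [← wE_val hw' ⟨b, base_lt b hb⟩, ← h3]
      exact (wE_val hw ⟨b, base_lt b hb⟩).symm
    rw [h4] at h1
    cases h1

theorem mem_line_of_normalizer {n : G0} (hn : n ∈ Subgroup.normalizer ((X₀ : Subgroup G0) : Set G0)) {p : Fin NN}
    (hp : t p * x₀ * t p = x₀⁻¹) : ((φ n p : Fin NN) : ℕ) ∈ [0, 1, 2] := by
  apply inv_line
  set z := n * x₀ * n⁻¹ with hz
  have hz1 : z ∈ X₀ := (Subgroup.mem_normalizer_iff.1 hn x₀).1 (Subgroup.mem_zpowers x₀)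
  have hz3 : orderOf z = 3 := by
    have := orderOf_injective (MulAut.conj n).toMonoidHom (MulAut.conj n).injective x₀
    rw [x_order] at this
    exact this
  have hgen : Subgroup.zpowers z = X₀ := by
    apply Subgroup.eq_of_le_of_card_ge
    · rwa [Subgroup.zpowers_le]
    · rw [Nat.card_zpowers, hz3, X₀, Nat.card_zpowers, x_order]
  have hx : x₀ ∈ Subgroup.zpowers z := by
    rw [hgen]
    exact Subgroup.mem_zpowers x₀
  obtain ⟨j, hj⟩ := Subgroup.mem_zpowers_iff.1 hx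
  have ht : t (φ n p) = n * t p * n⁻¹ := (t_conj n p).symm
  have hs : t (φ n p) * z * t (φ n p) = z⁻¹ := by
    rw [ht, hz]
    calc n * t p * n⁻¹ * (n * x₀ * n⁻¹) * (n * t p * n⁻¹) = n * (t p * x₀ * t p) * n⁻¹ := by group
      _ = (n * x₀ * n⁻¹)⁻¹ := by rw [hp]; group
  have hinv : (t (φ n p))⁻¹ = t (φ n p) := t_inv _
  rw [← hj]
  calc t (φ n p) * z ^ j * t (φ n p) = t (φ n p) * z ^ j * (t (φ n p))⁻¹ := by rw [hinv]
    _ = (t (φ n p) * z * (t (φ n p))⁻¹) ^ j := (conj_zpow).symm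
    _ = (z ^ j)⁻¹ := by rw [hinv, hs, inv_zpow]

theorem t_a_x : t pt0 * x₀ * t pt0 = x₀⁻¹ := by
  rw [← aa_eq]
  exact a_inv_x

theorem t_d_x : t lb1 * x₀ * t lb1 = x₀⁻¹ := by
  rw [← dd_eq]
  exact d_inv_x

theorem aG16 : aG 16 = aa := by rw [← wE_atom, aa_w]

theorem aG17 : aG 17 = dd := by rw [← wE_atom, dd_w]

theorem N_le : Subgroup.normalizer ((X₀ : Subgroup G0) : Set G0) ≤ S₀ ⊔ K₀ := by
  intro n hn
  have hu := mem_line_of_normalizer hn t_a_x
  have hv := mem_line_of_normalizer hn t_d_x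
  set u : ℕ := ((φ n pt0 : Fin NN) : ℕ) with hu'
  set v : ℕ := ((φ n lb1 : Fin NN) : ℕ) with hv'
  have hne : u ≠ v := by
    intro h
    have h1 : φ n pt0 = φ n lb1 := Fin.ext h
    have h2 := (φ n).injective h1
    have h3 : (pt0 : ℕ) = (lb1 : ℕ) := congrArg Fin.val h2
    exact absurd h3 (by decide +kernel)
  have hu3 : u < 3 := by
    have h0 : u = 0 ∨ u = 1 ∨ u = 2 := by simpa using hu
    omega
  have hv3 : v < 3 := by
    have h0 : v = 0 ∨ v = 1 ∨ v = 2 := by simpa using hv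
    omega
  have hn9 : 3 * u + v ∈ List.range 9 := List.mem_range.2 (by omega)
  have h1 := List.all_eq_true.1 sChk _ hn9
  have h3 : (3 * u + v) / 3 = u := by omega
  have h4 : (3 * u + v) % 3 = v := by omega
  rw [h3, h4] at h1
  have h5 : Nat.beq u v = false := by
    cases h6 : Nat.beq u v with
    | false => rfl
    | true => exact absurd (beq_iff.1 h6) hne
  rw [h5] at h1
  simp only [] at h1
  set w := sL.getD (3 * u + v) [] with hw
  cases h6 : wOK w with
  | false => rw [h6] at h1; cases h1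
  | true =>
  rw [h6] at h1
  simp only [] at h1
  cases h7 : w.all (fun a => [16, 17].elem a) with
  | false => rw [h7] at h1; cases h1
  | true =>
  rw [h7] at h1
  simp only [] at h1
  cases h8 : Nat.beq (run aV w 0) u with
  | false => rw [h8] at h1; cases h1
  | true =>
  rw [h8] at h1
  simp only [] at h1
  have h9 : run aV w 0 = u := beq_iff.1 h8
  have h10 : run aV w 1 = v := beq_iff.1 h1
  have hs : wE w ∈ S₀ := by
    apply word_mem_closure
    intro a ha
    have h11 := List.elem_iff.1 (List.all_eq_true.1 h7 a ha)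
    have h12 : a = 16 ∨ a = 17 := by simpa using h11
    rcases h12 with rfl | rfl
    · rw [aG16]; simp
    · rw [aG17]; simp
  have h13 : φ (wE w) pt0 = φ n pt0 := by
    apply Fin.ext
    rw [wE_val h6]
    exact h9
  have h14 : φ (wE w) lb1 = φ n lb1 := by
    apply Fin.ext
    rw [wE_val h6]
    exact h10
  have h15 : (wE w)⁻¹ * n ∈ K₀ := by
    apply C_le_K
    rw [Subgroup.mem_centralizer_iff]
    rintro y (rfl | rfl)
    · have : Commute ((wE w)⁻¹ * n) (t pt0) := by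
        apply (comm_t_iff' _ _).2
        rw [map_mul, Equiv.Perm.coe_mul, Function.comp_apply, ← h13, map_inv, pinv]
      rw [aa_eq]
      exact this.symm.eq
    · have : Commute ((wE w)⁻¹ * n) (t lb1) := by
        apply (comm_t_iff' _ _).2
        rw [map_mul, Equiv.Perm.coe_mul, Function.comp_apply, ← h14, map_inv, pinv]
      rw [dd_eq]
      exact this.symm.eq
  have h16 := Subgroup.mul_mem_sup hs h15
  rwa [mul_inv_cancel_left] at h16

theorem le_N : S₀ ⊔ K₀ ≤ Subgroup.normalizer ((X₀ : Subgroup G0) : Set G0) := by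
  rw [sup_le_iff]
  constructor
  · rw [S₀, Subgroup.closure_le]
    rintro y (rfl | rfl)
    · apply Prime.mem_normalizer_zpowers
      rw [aa_inv, a_inv_x]
      exact inv_mem (Subgroup.mem_zpowers _)
    · apply Prime.mem_normalizer_zpowers
      rw [dd_inv, d_inv_x]
      exact inv_mem (Subgroup.mem_zpowers _)
  · intro y hy
    apply Prime.mem_normalizer_zpowers
    rw [(K_comm_x hy).eq, mul_inv_cancel_right]
    exact Subgroup.mem_zpowers _

theorem S_sup_K : S₀ ⊔ K₀ = Subgroup.normalizer ((X₀ : Subgroup G0) : Set G0) := le_antisymm le_N N_le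

theorem S_inf_K : S₀ ⊓ K₀ = ⊥ := by
  rw [eq_bot_iff]
  rintro z ⟨hz1, hz2⟩
  rw [Subgroup.mem_bot]
  exact S3.central_eq_one aa_sq dd_sq ad_cube aa_ne hz1 (K_comm_a hz2).eq (K_comm_d hz2).eq

theorem S_comm_K : ∀ x ∈ S₀, ∀ y ∈ K₀, x * y = y * x := by
  intro x hx y hy
  have h1 := Subgroup.closure_le_centralizer_centralizer ({aa, dd} : Set G0) hx
  exact (Subgroup.mem_centralizer_iff.1 h1 y (K_le_C hy)).symm

theorem S_iso : Nonempty (↥S₀ ≃* Equiv.Perm (Fin 3)) := S3.exists_iso aa_sq dd_sq ad_cube aa_ne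

/-! ### The width -/

theorem inK_iff (q : Fin NN) : inK ((q : ℕ) + 16) = true ↔ Commute aa (t q) ∧ Commute dd (t q) := by
  have hq : (q : ℕ) < 3510 := q.2
  have hat : aG ((q : ℕ) + 16) = t q := by
    rw [← wE_atom, wE_label, tn_val]
  constructor
  · intro h
    have := inK_spec h
    rw [hat] at this
    exact ⟨this.2.1, this.2.2.1⟩
  · rintro ⟨h1, h2⟩
    have ha : (q : ℕ) + 16 < 3526 := by omega
    unfold inK
    rw [blt_iff.2 ha]
    simp only []
    have h3 : Nat.beq (aV ((q : ℕ) + 16) (nat_lit 0)) (nat_lit 0) = true := by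
      apply beq_iff.2
      have h4 := aV_spec ha pt0
      rw [hat] at h4
      have h5 : φ (t q) pt0 = pt0 := by
        apply (comm_t_iff' _ _).1
        rw [← aa_eq]
        exact h1.symm
      rw [h5] at h4
      exact h4.symm
    rw [h3]
    simp only []
    apply beq_iff.2
    have h4 := aV_spec ha lb1
    rw [hat] at h4
    have h5 : φ (t q) lb1 = lb1 := by
      apply (comm_t_iff' _ _).1
      rw [← dd_eq]
      exact h2.symm
    rw [h5] at h4
    exact h4.symm

theorem mem_KL_iff (q : Fin NN) : tb KLm q = true ↔ Commute aa (t q) ∧ Commute dd (t q) := by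
  rw [← inK_iff]
  have hq : (q : ℕ) < 3510 := q.2
  have h1 := allFrom_spec fixK q (Nat.zero_le _) (by show (q : ℕ) < 0 + 3510; omega)
  cases h2 : tb KLm q with
  | false =>
    rw [h2] at h1
    simp only [] at h1
    cases h3 : inK ((q : ℕ) + 16) with
    | false => simp
    | true => rw [h3] at h1; cases h1
  | true =>
    rw [h2] at h1
    simp only [] at h1
    cases h3 : inK ((q : ℕ) + 16) with
    | false => rw [h3] at h1; cases h1
    | true => simp

theorem fix_x_KL {q : Fin NN} (h : φ x₀ q = q) : tb KLm q = true := by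
  have hq : (q : ℕ) < 3510 := q.2
  have h1 := allFrom_spec fixX q (Nat.zero_le _) (by show (q : ℕ) < 0 + 3510; omega)
  have h2 : run aV xW q = q := by
    rw [← wE_val (by decide +kernel) q, x_w, h]
  have h3 : Nat.beq (run aV xW q) q = true := beq_iff.2 h2
  rw [h3] at h1
  exact h1

theorem width0 : commutingWidth (D0 ∩ (Subgroup.centralizer ((X₀ : Subgroup G0) : Set G0) : Set G0)) = 6 := by
  have hC : Subgroup.centralizer ((X₀ : Subgroup G0) : Set G0) = Subgroup.centralizer ({x₀} : Set G0) :=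
    Prime.centralizer_zpowers x₀
  rw [hC]
  apply width_eq (nat_lit 6 |> fun _ => cliq_ok) adj_ok
    (fun pr hpr => blt_iff.1 (List.all_eq_true.1 adjL_lt pr hpr))
    (ls := wL) (hlen := wL_len)
  · rintro u ⟨hu1, hu2⟩
    obtain ⟨q, rfl⟩ := mem_D0.1 hu1
    have h1 : Commute x₀ (t q) := (Subgroup.mem_centralizer_singleton_iff.1 hu2).symm
    have h2 := fix_x_KL ((comm_t_iff' x₀ q).1 h1)
    have hq : (q : ℕ) < 3510 := q.2
    have h3 := allFrom_spec hKLlist q (Nat.zero_le _) (by show (q : ℕ) < 0 + 3510; omega)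
    rw [h2] at h3
    exact ⟨q, List.elem_iff.1 h3, (tn_val q).symm⟩
  · intro q hq
    exact blt_iff.1 (List.all_eq_true.1 wL_lt q hq)
  · exact wL_nodup
  · intro q hq r hr
    exact beq_iff.1 (List.all_eq_true.1 (List.all_eq_true.1 wL_comm q hq) r hr)
  · intro q hq
    have h1 := List.all_eq_true.1 wL_in q hq
    have h2 := inK_spec h1
    rw [← wE_atom, wE_label] at h2
    refine ⟨h2.1, ?_⟩
    have h3 : tn q ∈ K₀ := Subgroup.subset_closure h2
    exact Subgroup.mem_centralizer_singleton_iff.2 (K_comm_x h3).eq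

/-! ### Conjugates of `X` in `K` -/

/-- The transitivity on non-commuting pairs. -/
theorem pair_trans {a d : G0} (ha : a ∈ D0) (hd : d ∈ D0) (hnc : ¬ Commute a d) :
    ∃ g : G0, g * a * g⁻¹ = aa ∧ g * d * g⁻¹ = dd := by
  obtain ⟨g₁, h₁⟩ := conj_trans0 a ha a0 a0_mem
  obtain ⟨q, hq⟩ := mem_D0.1 (D0_conj g₁ d hd)
  have hnc' : ¬ Commute a0 (t q) := by
    rw [← hq, ← h₁]
    intro k
    apply hnc
    have h2 := k.eq
    have e1 : g₁ * a * g₁⁻¹ * (g₁ * d * g₁⁻¹) = g₁ * (a * d) * g₁⁻¹ := by group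
    have e2 : g₁ * d * g₁⁻¹ * (g₁ * a * g₁⁻¹) = g₁ * (d * a) * g₁⁻¹ := by group
    rw [e1, e2] at h2
    have h3 := mul_left_cancel (mul_right_cancel h2)
    exact h3
  rcases label_cases q with ⟨h0, rfl⟩ | ⟨h1, h, hh, rfl⟩ | ⟨h2, h, hh, rfl⟩
  · exfalso
    apply hnc'
    rw [t_pt0]
  · refine ⟨h⁻¹ * g₁, ?_, ?_⟩
    · have e : h⁻¹ * g₁ * a * (h⁻¹ * g₁)⁻¹ = h⁻¹ * (g₁ * a * g₁⁻¹) * h := by group
      rw [e, h₁, aa_eq, t_pt0]
      have h3 := (a0_comm_H hh).eq
      calc h⁻¹ * a0 * h = h⁻¹ * (a0 * h) := by group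
        _ = h⁻¹ * (h * a0) := by rw [h3]
        _ = a0 := by group
    · have e : h⁻¹ * g₁ * d * (h⁻¹ * g₁)⁻¹ = h⁻¹ * (g₁ * d * g₁⁻¹) * h := by group
      rw [e, hq, dd_eq, ← t_conj]
      group
  · exfalso
    apply hnc'
    rw [comm_a0_t_iff, h2]
    omega

/-- The first label. -/
def ly0 : Fin NN := ⟨y0, by decide +kernel⟩
/-- The second label. -/
def ly1 : Fin NN := ⟨y1, by decide +kernel⟩

theorem K_preserves {k : G0} (hk : k ∈ K₀) {q : Fin NN} (hq : tb KLm q = true) : tb KLm (φ k q) = true := by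
  rw [mem_KL_iff] at hq ⊢
  rw [← t_conj]
  have h1 : Commute k aa := K_comm_a hk
  have h2 : Commute k dd := K_comm_d hk
  constructor
  · have h3 := hq.1.conj k
    have h4 : k * aa * k⁻¹ = aa := by rw [h1.eq, mul_inv_cancel_right]
    rwa [h4] at h3
  · have h3 := hq.2.conj k
    have h4 : k * dd * k⁻¹ = dd := by rw [h2.eq, mul_inv_cancel_right]
    rwa [h4] at h3

theorem gensK_mem : ∀ w ∈ gensK, wOK w = true ∧ wE w ∈ K₀ := by
  intro w hw
  have h1 := List.all_eq_true.1 hGensK w hw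
  cases h2 : wOK w with
  | false => rw [h2] at h1; cases h1
  | true =>
  rw [h2] at h1
  exact ⟨rfl, word_K h1⟩

theorem K_pair {u v : Fin NN} (hu : tb KLm u = true) (hv : tb KLm v = true) (hnc : ¬ Commute (t u) (t v)) :
    ∃ k ∈ K₀, φ k u = ly0 ∧ φ k v = ly1 := by
  obtain ⟨k₁, hk₁, h₁⟩ := reach_of_tree gensK_mem ly0.2 hTreeK u hu
  have hk₁' : φ k₁ ly0 = u := h₁
  set v₁ := φ k₁⁻¹ v with hv₁
  have hv₁K : tb KLm v₁ = true := K_preserves (inv_mem hk₁) hv
  have hnc₁ : ¬ Commute (t ly0) (t v₁) := by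
    intro k
    apply hnc
    have h2 := k.conj k₁
    rw [t_conj, t_conj, hk₁', hv₁, ← Equiv.Perm.mul_apply, ← map_mul, mul_inv_cancel, map_one] at h2
    exact h2
  have hNN₁ : tb NNm v₁ = true := by
    have hq : (v₁ : ℕ) < 3510 := v₁.2
    have h3 := allFrom_spec hNN v₁ (Nat.zero_le _) (by show (v₁ : ℕ) < 0 + 3510; omega)
    rw [hv₁K] at h3
    simp only [] at h3
    have h4 : Nat.beq (tv y0 v₁) v₁ = false := by
      cases h5 : Nat.beq (tv y0 v₁) v₁ with
      | false => rfl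
      | true =>
        exfalso
        apply hnc₁
        apply (comm_t_iff _ _).2
        apply Fin.ext
        have h6 := tv_spec ly0 v₁
        rw [h6]
        exact beq_iff.1 h5
    rw [h4] at h3
    exact h3
  have hgN : ∀ w ∈ gensN, wOK w = true ∧ wE w ∈ CY (Ylw [y0]) ⊓ K₀ := by
    apply gens_mem (by decide +kernel)
    exact hGensN
  obtain ⟨k₂, hk₂, h₂⟩ := reach_of_tree hgN ly1.2 hTreeN v₁ hNN₁
  have h₂' : φ k₂ ly1 = v₁ := h₂
  have hk₂1 : k₂ ∈ CY (Ylw [y0]) := (Subgroup.mem_inf.1 hk₂).1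
  have hk₂2 : k₂ ∈ K₀ := (Subgroup.mem_inf.1 hk₂).2
  have hfix : φ k₂ ly0 = ly0 := fix_of_mem_CY hk₂1 (List.mem_singleton.2 rfl) ly0.2
  refine ⟨(k₁ * k₂)⁻¹, inv_mem (mul_mem hk₁ hk₂2), ?_, ?_⟩
  · have h3 : φ (k₁ * k₂) ly0 = u := by
      rw [map_mul, Equiv.Perm.coe_mul, Function.comp_apply, hfix, hk₁']
    rw [← h3, map_inv, pinv]
  · have h3 : φ (k₁ * k₂) ly1 = v := by
      rw [map_mul, Equiv.Perm.coe_mul, Function.comp_apply, h₂', hv₁, ← Equiv.Perm.mul_apply, ← map_mul, mul_inv_cancel, map_one]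
      rfl
    rw [← h3, map_inv, pinv]

theorem conj_X (g : G0) : X₀.map (MulAut.conj g).toMonoidHom = Subgroup.zpowers (g * x₀ * g⁻¹) := by
  rw [X₀, MonoidHom.map_zpowers]
  rfl

theorem conj_x_eq (g : G0) : g * x₀ * g⁻¹ = t (φ g pt0) * t (φ g lb1) := by
  rw [← t_conj, ← t_conj, ← aa_eq, ← dd_eq, x₀]
  group

theorem labels_of_le {g : G0} (hg : X₀.map (MulAut.conj g).toMonoidHom ≤ K₀) :
    tb KLm (φ g pt0) = true ∧ tb KLm (φ g lb1) = true := by
  have hz : g * x₀ * g⁻¹ ∈ K₀ := by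
    apply hg
    rw [conj_X]
    exact Subgroup.mem_zpowers _
  -- for a label commuting with the conjugate
  have key : ∀ r : Fin NN, Commute (g * x₀ * g⁻¹) (t r) →
      Commute (t r) (t (φ g pt0)) ∧ Commute (t r) (t (φ g lb1)) := by
    intro r hr
    have h1 : Commute x₀ (t (φ g⁻¹ r)) := by
      have h2 := hr.conj g⁻¹
      rw [t_conj] at h2
      have e : g⁻¹ * (g * x₀ * g⁻¹) * g⁻¹⁻¹ = x₀ := by group
      rwa [e] at h2
    have h3 := (mem_KL_iff _).1 (fix_x_KL ((comm_t_iff' x₀ _).1 h1))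
    have h4 := h3.1.conj g
    have h5 := h3.2.conj g
    rw [t_conj, ← Equiv.Perm.mul_apply, ← map_mul, mul_inv_cancel, map_one] at h4 h5
    simp only [Equiv.Perm.one_apply] at h4 h5
    have e1 : g * aa * g⁻¹ = t (φ g pt0) := by rw [aa_eq, t_conj]
    have e2 : g * dd * g⁻¹ = t (φ g lb1) := by rw [dd_eq, t_conj]
    rw [e1] at h4
    rw [e2] at h5
    exact ⟨h4.symm, h5.symm⟩
  have h6 := key pt0 (by rw [← aa_eq]; exact K_comm_a hz)
  have h7 := key lb1 (by rw [← dd_eq]; exact K_comm_d hz)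
  rw [← aa_eq] at h6
  rw [← dd_eq] at h7
  exact ⟨(mem_KL_iff _).2 ⟨h6.1, h7.1⟩, (mem_KL_iff _).2 ⟨h6.2, h7.2⟩⟩

theorem noncomm_conj (g : G0) : ¬ Commute (t (φ g pt0)) (t (φ g lb1)) := by
  intro k
  apply noncomm
  have h1 := k.conj g⁻¹
  rw [t_conj, t_conj, ← Equiv.Perm.mul_apply, ← Equiv.Perm.mul_apply, ← map_mul, inv_mul_cancel, map_one] at h1
  simp only [Equiv.Perm.one_apply] at h1
  rwa [aa_eq, dd_eq]

/-- A conjugate of `X` in `K` can be moved to a fixed one by `K`. -/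
theorem move_to_fixed {g : G0} (hg : X₀.map (MulAut.conj g).toMonoidHom ≤ K₀) :
    ∃ k ∈ K₀, (X₀.map (MulAut.conj g).toMonoidHom).map (MulAut.conj k).toMonoidHom =
      Subgroup.zpowers (t ly0 * t ly1) := by
  obtain ⟨h1, h2⟩ := labels_of_le hg
  obtain ⟨k, hk, e1, e2⟩ := K_pair h1 h2 (noncomm_conj g)
  refine ⟨k, hk, ?_⟩
  rw [← map_conj_mul, conj_X, conj_x_eq, map_mul, Equiv.Perm.coe_mul, Function.comp_apply,
    Function.comp_apply, e1, e2]

theorem exists_le : ∃ g : G0, X₀.map (MulAut.conj g).toMonoidHom ≤ K₀ := by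
  have hnc : ¬ Commute (t ly0) (t ly1) := by
    intro k
    have h1 := (comm_t_iff _ _).1 k
    have h2 := tv_spec ly0 ly1
    rw [h1] at h2
    have h3 := y0_y1
    rw [show tv y0 y1 = y1 from h2.symm, Nat.beq_refl] at h3
    cases h3
  obtain ⟨g, h1, h2⟩ := pair_trans (t_mem ly0) (t_mem ly1) hnc
  have h3 := (mem_KL_iff ly0).1 y0_in
  have h4 := (mem_KL_iff ly1).1 y1_in
  have h5 : t ly0 ∈ K₀ := Subgroup.subset_closure (mem_KS (t_mem _) h3.1 h3.2)
  have h6 : t ly1 ∈ K₀ := Subgroup.subset_closure (mem_KS (t_mem _) h4.1 h4.2)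
  refine ⟨g⁻¹, ?_⟩
  rw [conj_X, Subgroup.zpowers_le]
  have e : g⁻¹ * x₀ * g⁻¹⁻¹ = t ly0 * t ly1 := by
    rw [x₀, ← h1, ← h2]
    group
  rw [e]
  exact mul_mem h5 h6

theorem single_class {g h : G0} (hg : X₀.map (MulAut.conj g).toMonoidHom ≤ K₀)
    (hh : X₀.map (MulAut.conj h).toMonoidHom ≤ K₀) :
    ∃ k ∈ K₀, (X₀.map (MulAut.conj g).toMonoidHom).map (MulAut.conj k).toMonoidHom =
      X₀.map (MulAut.conj h).toMonoidHom := by
  obtain ⟨k₁, hk₁, e₁⟩ := move_to_fixed hg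
  obtain ⟨k₂, hk₂, e₂⟩ := move_to_fixed hh
  exact ⟨k₂⁻¹ * k₁, mul_mem (inv_mem hk₂) hk₁, map_conj_trans e₁ (map_conj_symm e₂)⟩

end Cfsg.Agent.Lib.Fischer.M22.Rows.P3AData
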