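/-
The structure of the normalizer of the group generated by the product of two non-commuting transpositions, and its
transport along isomorphisms.
-/
import Mathlib
import Cfsg.Agent.Lib.Fischer.M22.ExplicitRows
import Cfsg.Agent.Lib.Fischer.M22.Rows.P3A

set_option autoImplicit false

namespace Cfsg.Agent.Lib.Fischer.M22.Rows

open Cfsg

variable {G H : Type*} [Group G] [Group H]

/-- The generators of the centralizer. -/
def KSet (D : Set G) (a d : G) : Set G := {y : G | y ∈ D ∧ Commute a y ∧ Commute d y ∧ y ≠ a ∧ y ≠ d}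

/-- The structure in the row. -/
def Row3A (D : Set G) (a d : G) : Prop :=
  Subgroup.closure ({a, d} : Set G) ⊓ Subgroup.closure (KSet D a d) = ⊥ ∧
  (∀ x ∈ Subgroup.closure ({a, d} : Set G), ∀ y ∈ Subgroup.closure (KSet D a d), x * y = y * x) ∧
  Subgroup.closure ({a, d} : Set G) ⊔ Subgroup.closure (KSet D a d) =
    Subgroup.normalizer ((Subgroup.zpowers (a * d) : Subgroup G) : Set G) ∧
  Nonempty (↥(Subgroup.closure ({a, d} : Set G)) ≃* Equiv.Perm (Fin 3)) ∧
  Subgroup.closure (KSet D a d) = Subgroup.centralizer ({a, d} : Set G) ∧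
  Cfsg.commutingWidth (D ∩ (Subgroup.centralizer ((Subgroup.zpowers (a * d) : Subgroup G) : Set G) : Set G)) = 6 ∧
  (∃ g : G, (Subgroup.zpowers (a * d)).map (MulAut.conj g).toMonoidHom ≤ Subgroup.closure (KSet D a d)) ∧
  ∀ g h : G, (Subgroup.zpowers (a * d)).map (MulAut.conj g).toMonoidHom ≤ Subgroup.closure (KSet D a d) →
    (Subgroup.zpowers (a * d)).map (MulAut.conj h).toMonoidHom ≤ Subgroup.closure (KSet D a d) →
    ∃ k ∈ Subgroup.closure (KSet D a d),
      ((Subgroup.zpowers (a * d)).map (MulAut.conj g).toMonoidHom).map (MulAut.conj k).toMonoidHom =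
        (Subgroup.zpowers (a * d)).map (MulAut.conj h).toMonoidHom

theorem map_conj_equiv (e : G ≃* H) (X : Subgroup G) (g : G) :
    (X.map (MulAut.conj g).toMonoidHom).map e.toMonoidHom =
      (X.map e.toMonoidHom).map (MulAut.conj (e g)).toMonoidHom := by
  rw [Subgroup.map_map, Subgroup.map_map]
  congr 1
  apply MonoidHom.ext
  intro z
  simp [MulAut.conj_apply]

theorem KSet_image (e : G ≃* H) {D : Set G} {D' : Set H} (he : e '' D = D') {a d : G} {a' d' : H}
    (ha : e a = a') (hd : e d = d') : e '' KSet D a d = KSet D' a' d' := by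
  subst ha hd
  ext z
  constructor
  · rintro ⟨y, ⟨h1, h2, h3, h4, h5⟩, rfl⟩
    refine ⟨he ▸ ⟨y, h1, rfl⟩, h2.map e, h3.map e, ?_, ?_⟩
    · exact fun k => h4 (e.injective k)
    · exact fun k => h5 (e.injective k)
  · rintro ⟨h1, h2, h3, h4, h5⟩
    rw [← he] at h1
    obtain ⟨y, hy, rfl⟩ := h1
    refine ⟨y, ⟨hy, ?_, ?_, ?_, ?_⟩, rfl⟩
    · have := h2.map e.symm
      simpa using this
    · have := h3.map e.symm
      simpa using this
    · rintro rfl
      exact h4 rfl
    · rintro rfl
      exact h5 rfl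

theorem map_K (e : G ≃* H) {D : Set G} {D' : Set H} (he : e '' D = D') {a d : G} {a' d' : H}
    (ha : e a = a') (hd : e d = d') :
    (Subgroup.closure (KSet D a d)).map e.toMonoidHom = Subgroup.closure (KSet D' a' d') := by
  rw [MonoidHom.map_closure]
  congr 1
  exact KSet_image e he ha hd

theorem map_S (e : G ≃* H) {a d : G} {a' d' : H} (ha : e a = a') (hd : e d = d') :
    (Subgroup.closure ({a, d} : Set G)).map e.toMonoidHom = Subgroup.closure ({a', d'} : Set H) := by
  rw [MonoidHom.map_closure, Set.image_pair]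
  subst ha hd
  rfl

theorem map_X (e : G ≃* H) {a d : G} {a' d' : H} (ha : e a = a') (hd : e d = d') :
    (Subgroup.zpowers (a * d)).map e.toMonoidHom = Subgroup.zpowers (a' * d') := by
  rw [MonoidHom.map_zpowers]
  subst ha hd
  simp

theorem Row3A.transport (e : G ≃* H) {D : Set G} {D' : Set H} (he : e '' D = D') {a d : G} {a' d' : H}
    (ha : e a = a') (hd : e d = d') (h : Row3A D' a' d') : Row3A D a d := by
  obtain ⟨h1, h2, h3, ⟨h4⟩, h5, h6, ⟨g', h7⟩, h8⟩ := h
  have hX := map_X e ha hd
  have hS := map_S e ha hd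
  have hK := map_K e he ha hd
  have hCX : (Subgroup.centralizer ((Subgroup.zpowers (a * d) : Subgroup G) : Set G)).map e.toMonoidHom =
      Subgroup.centralizer ((Subgroup.zpowers (a' * d') : Subgroup H) : Set H) := by
    rw [map_centralizer_equiv', hX]
  have hCad : (Subgroup.centralizer ({a, d} : Set G)).map e.toMonoidHom = Subgroup.centralizer ({a', d'} : Set H) := by
    rw [map_centralizer_equiv, Set.image_pair, ha, hd]
  have hN : (Subgroup.normalizer ((Subgroup.zpowers (a * d) : Subgroup G) : Set G)).map e.toMonoidHom =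
      Subgroup.normalizer ((Subgroup.zpowers (a' * d') : Subgroup H) : Set H) := by
    rw [map_normalizer_equiv, hX]
  set S := Subgroup.closure ({a, d} : Set G) with hSdef
  set K := Subgroup.closure (KSet D a d) with hKdef
  set S' := Subgroup.closure ({a', d'} : Set H) with hSdef'
  set K' := Subgroup.closure (KSet D' a' d') with hKdef'
  set X := Subgroup.zpowers (a * d) with hXdef
  set X' := Subgroup.zpowers (a' * d') with hXdef'
  have hmemK : ∀ y, y ∈ K ↔ e y ∈ K' := by
    intro y
    rw [← hK]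
    constructor
    · intro hy
      exact ⟨y, hy, rfl⟩
    · rintro ⟨y', hy', e1⟩
      have : y' = y := e.injective e1
      rwa [← this]
  have hle : ∀ g : G, X.map (MulAut.conj g).toMonoidHom ≤ K → X'.map (MulAut.conj (e g)).toMonoidHom ≤ K' := by
    intro g hg
    rw [← hX, ← map_conj_equiv, ← hK]
    exact Subgroup.map_mono hg
  refine ⟨?_, ?_, ?_, ?_, ?_, ?_, ?_, ?_⟩
  · apply map_injective_equiv e
    rw [map_inf_equiv, hS, hK, h1, Subgroup.map_bot]
  · intro x hx y hy
    apply e.injective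
    rw [map_mul, map_mul]
    exact h2 _ (by rw [← hS]; exact ⟨x, hx, rfl⟩) _ ((hmemK y).1 hy)
  · apply map_injective_equiv e
    rw [map_sup_equiv, hS, hK, h3, hN]
  · exact ⟨(e.subgroupMap S).trans ((MulEquiv.subgroupCongr hS).trans h4)⟩
  · apply map_injective_equiv e
    rw [hK, hCad, h5]
  · rw [← h6]
    apply Cfsg.Agent.Lib.Fischer.M22.Explicit.commutingWidth_congr e
    intro z
    constructor
    · rintro ⟨hz1, hz2⟩
      refine ⟨he ▸ ⟨z, hz1, rfl⟩, ?_⟩
      rw [← hCX]
      exact ⟨z, hz2, rfl⟩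
    · rintro ⟨hz1, hz2⟩
      rw [← he] at hz1
      rw [← hCX] at hz2
      obtain ⟨y, hy, e1⟩ := hz1
      obtain ⟨y', hy', e2⟩ := hz2
      have e3 : y = z := e.injective e1
      have e4 : y' = z := e.injective e2
      exact ⟨e3 ▸ hy, e4 ▸ hy'⟩
  · refine ⟨e.symm g', ?_⟩
    rw [← Subgroup.map_le_map_iff_of_injective (f := e.toMonoidHom) e.injective, map_conj_equiv, hX, hK]
    simpa using h7
  · intro g h hg hh
    obtain ⟨k', hk', e1⟩ := h8 (e g) (e h) (hle g hg) (hle h hh)
    refine ⟨e.symm k', ?_, ?_⟩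
    · rw [hmemK]
      simpa using hk'
    · apply map_injective_equiv e
      rw [map_conj_equiv e _ (e.symm k'), map_conj_equiv e X g, map_conj_equiv e X h, hX, e.apply_symm_apply]
      exact e1

/-- The row holds for the explicit pair. -/
theorem row3A_0 : Row3A Explicit.D0 P3AData.aa P3AData.dd :=
  ⟨P3AData.S_inf_K, P3AData.S_comm_K, P3AData.S_sup_K, P3AData.S_iso, P3AData.K_eq_C, P3AData.width0,
    P3AData.exists_le, fun _ _ hg hh => P3AData.single_class hg hh⟩

end Cfsg.Agent.Lib.Fischer.M22.Rows
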